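import Mathlib
import Cfsg.Agent.Lib.Helper75.LW.Defs

/-!
# S0745 (Livingstone–Wagner, the rigid situation for all `n ≥ k`): interface of project "LW45"

Extends the interface of project LW (S0746).  Only definitions and package statements.
-/

set_option autoImplicit false

namespace Cfsg.Agent.Lib.Helper75.LW

universe u

/-- the rigid situation without the bound `2k ≤ n` -/
structure Rigid' {α : Type u} [Fintype α] (G : Subgroup (Equiv.Perm α)) (k : ℕ) : Prop where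
  k3 : 3 ≤ k
  kn : k ≤ Fintype.card α
  tr : HT G (k - 2)
  ntr : ¬ HT G (k - 1)
  h1 : HH G (k - 1)
  h2 : HH G k

/-- [R1'] -/
def PkgR1' : Prop := ∀ {α : Type u} [Fintype α] [DecidableEq α] (G : Subgroup (Equiv.Perm α))
  (k : ℕ), Rigid' G k → Triv G (k - 1)

/-- [R2'] -/
def PkgR2' : Prop := ∀ {α : Type u} [Fintype α] [DecidableEq α] (G : Subgroup (Equiv.Perm α))
  (k : ℕ), Rigid' G k → Triv G (k - 1) → NoInv G (k - 2)

/-- [RES] restriction of the pointwise stabiliser of `S` to the complement of `S` -/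
def PkgRes : Prop := ∀ {α : Type u} [Fintype α] [DecidableEq α] (G : Subgroup (Equiv.Perm α))
  (S : Finset α) (j : ℕ), HT G (S.card + j) → Triv G (S.card + j) →
  ∃ L : Subgroup (Equiv.Perm {a : α // a ∉ S}), HT L j ∧ Triv L j

/-- [J4] Jordan's bound for sharply 4-transitive groups -/
def PkgJ4 : Prop := ∀ {α : Type u} [Fintype α] [DecidableEq α] (G : Subgroup (Equiv.Perm α)),
  HT G 4 → Triv G 4 → Fintype.card α ≤ 11 ∧ (Even (Fintype.card α) → Fintype.card α ≤ 6)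

/-- [U] uniqueness of the involution in a Frobenius complement (permutation form) -/
def PkgU : Prop := ∀ {α : Type u} [Fintype α] [DecidableEq α] (G : Subgroup (Equiv.Perm α))
  (Λ₀ : Finset α) (x : α), x ∉ Λ₀ →
  (∀ y : α, y ∉ Λ₀ → ∃ g ∈ G, (∀ p ∈ Λ₀, g p = p) ∧ g x = y) →
  (∀ g ∈ G, (∀ p ∈ Λ₀, g p = p) → ∀ y z : α, y ∉ Λ₀ → z ∉ Λ₀ → y ≠ z → g y = y → g z = z →
    g = 1) →
  (∃ g ∈ G, g ≠ 1 ∧ (∀ p ∈ Λ₀, g p = p) ∧ g x = x) →
  ∀ z₁ ∈ G, ∀ z₂ ∈ G, z₁ * z₁ = 1 → z₂ * z₂ = 1 → z₁ ≠ 1 → z₂ ≠ 1 →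
  (∀ p ∈ Λ₀, z₁ p = p) → z₁ x = x → (∀ p ∈ Λ₀, z₂ p = p) → z₂ x = x → z₁ = z₂

/-- [E79] no sharply 4-transitive group of degree 7 or 9 -/
def PkgE79 : Prop := ∀ {α : Type u} [Fintype α] [DecidableEq α] (G : Subgroup (Equiv.Perm α)),
  HT G 4 → Triv G 4 → (Fintype.card α = 7 ∨ Fintype.card α = 9) → False

/-- [E13] no sharply 6-transitive group of degree 13 -/
def PkgE13 : Prop := ∀ {α : Type u} [Fintype α] [DecidableEq α] (G : Subgroup (Equiv.Perm α)),
  HT G 6 → Triv G 6 → Fintype.card α = 13 → False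

/-- [E7] no sharply 3-transitive group of degree 7 -/
def PkgE7 : Prop := ∀ {α : Type u} [Fintype α] [DecidableEq α] (G : Subgroup (Equiv.Perm α)),
  HT G 3 → Triv G 3 → Fintype.card α = 7 → False

/-- [ALT] a subgroup of order `n!/2` is the alternating group -/
def PkgAlt : Prop := ∀ {α : Type u} [Fintype α] [DecidableEq α] (G : Subgroup (Equiv.Perm α)),
  Nat.card G * 2 = (Fintype.card α).factorial → G = alternatingGroup α

/-- [CASES] the rigid situation for `k ≤ n < 2k` -/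
def PkgCases : Prop := ∀ {α : Type u} [Fintype α] [DecidableEq α] (G : Subgroup (Equiv.Perm α))
  (k : ℕ), Rigid' G k → Fintype.card α < 2 * k →
  (k = Fintype.card α ∧ G = alternatingGroup α) ∨
  (Fintype.card α = 5 ∧ k = 4 ∧ Nat.card G = 20) ∨
  (Fintype.card α = 6 ∧ k = 5 ∧ Nat.card G = 120) ∨
  (Fintype.card α = 9 ∧ k = 5 ∧ (Nat.card G = 504 ∨ Nat.card G = 1512))

end Cfsg.Agent.Lib.Helper75.LW
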